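import Mathlib

/-!
Spaces of matrices invariant under conjugation by transvections contain all elementary matrices once they
contain a matrix that is not scalar.
-/

set_option autoImplicit false
set_option linter.unusedSectionVars false

namespace Cfsg.Agent.H99.Tensor

open Matrix

variable {F : Type*} [Field F] {α : Type} [Fintype α] [DecidableEq α] {W : Submodule F (Matrix α α F)}

/-- Invariance under the transvections. -/
def TransInv (W : Submodule F (Matrix α α F)) : Prop :=
  ∀ (i j : α) (c : F), i ≠ j → ∀ G ∈ W,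
    (1 + Matrix.single i j c) * G * (1 - Matrix.single i j c) ∈ W

theorem conj_sub (E G : Matrix α α F) :
    (1 + E) * G * (1 - E) - G = E * G - G * E - E * G * E := by
  noncomm_ring

theorem TransInv.diff (h : TransInv W) {i j : α} (hij : i ≠ j) (c : F) {G : Matrix α α F} (hG : G ∈ W) :
    c • (Matrix.single i j 1 * G - G * Matrix.single i j 1) - (c * c * G j i) • Matrix.single i j 1 ∈ W := by
  have := W.sub_mem (h i j c hij G hG) hG
  rw [conj_sub, Matrix.single_mul_mul_single] at this
  convert this using 1
  have hc : (Matrix.single i j c : Matrix α α F) = c • Matrix.single i j 1 := by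
    rw [Matrix.smul_single, smul_eq_mul, mul_one]
  rw [hc, Matrix.smul_mul, Matrix.mul_smul, smul_sub]
  congr 1
  rw [Matrix.smul_single, smul_eq_mul]
  congr 1
  ring

theorem TransInv.exists_offdiag (h : TransInv W) {G : Matrix α α F} (hG : G ∈ W)
    (hns : ¬ ∃ c : F, G = c • (1 : Matrix α α F)) : ∃ H ∈ W, ∃ i j : α, i ≠ j ∧ H j i ≠ 0 := by
  by_cases h0 : ∃ i j, i ≠ j ∧ G j i ≠ 0
  · exact ⟨G, hG, h0⟩
  push Not at h0
  obtain ⟨i, j, hne⟩ : ∃ i j, G i i ≠ G j j := by
    by_contra hc
    push Not at hc
    refine hns ?_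
    rcases isEmpty_or_nonempty α with he | he
    · exact ⟨0, by ext i; exact isEmptyElim i⟩
    obtain ⟨i0⟩ := he
    refine ⟨G i0 i0, ?_⟩
    ext k l
    by_cases hkl : k = l
    · subst hkl; simp [hc k i0]
    · simp [h0 l k (Ne.symm hkl), hkl]
  have hij : i ≠ j := fun e => hne (by rw [e])
  refine ⟨_, h.diff hij 1 hG, j, i, hij.symm, ?_⟩
  simp [Matrix.single_mul_apply_same, Matrix.mul_single_apply_same, h0 i j hij, sub_ne_zero]
  exact fun e => hne e.symm

theorem TransInv.exists_single (h : TransInv W) (hq : (∃ c : F, c ≠ 0 ∧ c ≠ 1) ∨ 3 ≤ Fintype.card α)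
    {G : Matrix α α F} (hG : G ∈ W) (hns : ¬ ∃ c : F, G = c • (1 : Matrix α α F)) :
    ∃ i j : α, i ≠ j ∧ Matrix.single i j (1 : F) ∈ W := by
  obtain ⟨H, hH, i, j, hij, hne⟩ := h.exists_offdiag hG hns
  rcases hq with ⟨c, hc0, hc1⟩ | ha
  · refine ⟨i, j, hij, ?_⟩
    have h1 := W.sub_mem (h.diff hij c hH) (W.smul_mem c (h.diff hij 1 hH))
    have hcc : c * (1 - c) * H j i ≠ 0 := mul_ne_zero (mul_ne_zero hc0 (sub_ne_zero.2 (Ne.symm hc1))) hne
    refine (W.smul_mem_iff hcc).1 ?_
    convert h1 using 1
    module
  · obtain ⟨k, hk⟩ : ∃ k, k ∉ ({i, j} : Finset α) := by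
      by_contra hc
      push Not at hc
      have := Finset.card_le_card (fun x _ => hc x : (Finset.univ : Finset α) ⊆ {i, j})
      have := Finset.card_le_two (a := i) (b := j)
      rw [Finset.card_univ] at *
      omega
    simp only [Finset.mem_insert, Finset.mem_singleton, not_or] at hk
    have hki : i ≠ k := Ne.symm hk.1
    have hkj : k ≠ j := hk.2
    have hA : (1 + Matrix.single i j (1 : F)) * (1 + Matrix.single i k 1) =
        1 + (Matrix.single i j 1 + Matrix.single i k 1) := by
      rw [add_mul, mul_add, mul_add, Matrix.single_mul_single_of_ne (h := hij.symm)]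
      simp only [mul_one, one_mul, add_zero]
      abel
    have hB : (1 - Matrix.single i k (1 : F)) * (1 - Matrix.single i j 1) =
        1 - (Matrix.single i j 1 + Matrix.single i k 1) := by
      rw [sub_mul, mul_sub, mul_sub, Matrix.single_mul_single_of_ne (h := hki.symm)]
      simp only [mul_one, one_mul, sub_zero]
      abel
    have hboth := h i j 1 hij _ (h i k 1 hki H hH)
    have e1 : (1 + Matrix.single i j (1 : F)) * ((1 + Matrix.single i k 1) * H * (1 - Matrix.single i k 1)) *
        (1 - Matrix.single i j 1) = (1 + (Matrix.single i j 1 + Matrix.single i k 1)) * H *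
        (1 - (Matrix.single i j 1 + Matrix.single i k 1)) := by
      rw [← hA, ← hB]
      noncomm_ring
    rw [e1] at hboth
    have hX := W.sub_mem (W.sub_mem hboth (h i j 1 hij H hH)) (W.sub_mem (h i k 1 hki H hH) hH)
    have e2 : (1 + (Matrix.single i j (1 : F) + Matrix.single i k 1)) * H *
          (1 - (Matrix.single i j 1 + Matrix.single i k 1)) -
          (1 + Matrix.single i j 1) * H * (1 - Matrix.single i j 1) -
          ((1 + Matrix.single i k 1) * H * (1 - Matrix.single i k 1) - H) =
        -(Matrix.single i j 1 * H * Matrix.single i k 1 + Matrix.single i k 1 * H * Matrix.single i j 1) := by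
      noncomm_ring
    rw [e2, Matrix.single_mul_mul_single, Matrix.single_mul_mul_single, one_mul, mul_one, one_mul, mul_one]
      at hX
    have hX' := (Submodule.neg_mem_iff _).1 hX
    refine ⟨i, j, hij, ?_⟩
    have h2 := h.diff hkj 1 hX'
    refine (W.smul_mem_iff (neg_ne_zero.2 hne)).1 ?_
    convert h2 using 1
    simp [Matrix.smul_single, mul_add, add_mul, Matrix.single_mul_single_of_ne, Matrix.single_mul_single_same,
      hij, hij.symm, hki, hki.symm, hkj, hkj.symm, Matrix.add_apply, Matrix.single_apply]

theorem TransInv.left (h : TransInv W) {i j k : α} (hk : k ≠ j) (hki : k ≠ i) (hij : i ≠ j)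
    (hG : Matrix.single i j (1 : F) ∈ W) : Matrix.single k j (1 : F) ∈ W := by
  have := h.diff hki 1 hG
  simpa [Matrix.single_mul_single_same, Matrix.single_mul_single_of_ne, hk.symm, hij, hki,
    Matrix.single_apply] using this

theorem TransInv.right (h : TransInv W) {i j l : α} (hl : l ≠ j) (hli : l ≠ i) (hij : i ≠ j)
    (hG : Matrix.single i j (1 : F) ∈ W) : Matrix.single i l (1 : F) ∈ W := by
  have := h.diff hl.symm 1 hG
  rw [← Submodule.neg_mem_iff]
  simpa [Matrix.single_mul_single_same, Matrix.single_mul_single_of_ne, hl, hli, hij, hl.symm, hli.symm, hij.symm,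
    Matrix.single_apply] using this

theorem TransInv.swap (h : TransInv W) {i j : α} (hij : i ≠ j)
    (hG : Matrix.single i j (1 : F) ∈ W) : Matrix.single j i (1 : F) ∈ W := by
  have h1 := h i j 1 hij _ (h j i (-1) hij.symm _ (h i j 1 hij _ hG))
  rw [← Submodule.neg_mem_iff]
  convert h1 using 1
  simp [mul_add, add_mul, mul_sub, sub_mul, Matrix.single_mul_single_same, Matrix.single_mul_single_of_ne,
    hij.symm]
  simp [← Matrix.single_neg]
  abel

/-- All elementary matrices lie in an invariant space with a matrix that is not scalar. -/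
theorem TransInv.all_single (h : TransInv W) (hq : (∃ c : F, c ≠ 0 ∧ c ≠ 1) ∨ 3 ≤ Fintype.card α)
    {G : Matrix α α F} (hG : G ∈ W) (hns : ¬ ∃ c : F, G = c • (1 : Matrix α α F))
    (k l : α) (hkl : k ≠ l) (c : F) : Matrix.single k l c ∈ W := by
  obtain ⟨i, j, hij, hs⟩ := h.exists_single hq hG hns
  have key : Matrix.single k l (1 : F) ∈ W := by
    by_cases hkj : k = j
    · subst hkj
      have hs' := h.swap hij hs
      by_cases hli : l = i
      · rwa [hli]
      · exact h.right hli hkl.symm hij.symm hs'
    · have hkj' : Matrix.single k j (1 : F) ∈ W := by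
        by_cases hki : k = i
        · rwa [hki]
        · exact h.left hkj hki hij hs
      by_cases hlj : l = j
      · rwa [hlj]
      · exact h.right hlj hkl.symm hkj hkj'
  have := W.smul_mem c key
  rwa [Matrix.smul_single, smul_eq_mul, mul_one] at this

end Cfsg.Agent.H99.Tensor
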