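import Cfsg.Agent.H99.Tensor.Basic
import Cfsg.Agent.H99.Tensor.Invariant
import Cfsg.Agent.H64.SLIndex.Transv
import Cfsg.Prelude.Def_GeometricClasses

/-!
Groups between the stabiliser of a tensor decomposition and the special linear group: the dichotomy for the
groups of transformations fixing all but one layer.
-/

set_option autoImplicit false
set_option linter.unusedSectionVars false

namespace Cfsg.Agent.H99.Tensor

open Matrix
open scoped Kronecker

variable {F : Type*} [Field F] {α : Type} [Fintype α] [DecidableEq α] {b : ℕ}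

local notation "Ix" => α × Fin b

/-- A matrix is a product of two invertible factors. -/
def IsPure (X : Matrix (α × Fin b) (α × Fin b) F) : Prop :=
  ∃ (g : Matrix α α F) (h : Matrix (Fin b) (Fin b) F), X = g ⊗ₖ h

theorem IsPure.mul {X Y : Matrix Ix Ix F} (hX : IsPure X) (hY : IsPure Y) : IsPure (X * Y) := by
  obtain ⟨g, h, rfl⟩ := hX
  obtain ⟨g', h', rfl⟩ := hY
  exact ⟨g * g', h * h', (Matrix.mul_kronecker_mul g g' h h').symm⟩

/-- The setting: a group between the stabiliser and the special linear group. -/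
structure Over (M : Subgroup (GL (α × Fin b) F)) : Prop where
  det : ∀ y ∈ M, (y : Matrix (α × Fin b) (α × Fin b) F).det = 1
  pure : ∀ y : GL (α × Fin b) F, IsPure (y : Matrix (α × Fin b) (α × Fin b) F) →
    (y : Matrix (α × Fin b) (α × Fin b) F).det = 1 → y ∈ M
  three : 3 ≤ b

/-- A matrix of an element of `M`. -/
def InM (M : Subgroup (GL (α × Fin b) F)) (X : Matrix (α × Fin b) (α × Fin b) F) : Prop :=
  ∃ y ∈ M, (y : Matrix (α × Fin b) (α × Fin b) F) = X

variable {M : Subgroup (GL (α × Fin b) F)}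

theorem InM.mul {X Y : Matrix Ix Ix F} (hX : InM M X) (hY : InM M Y) : InM M (X * Y) := by
  obtain ⟨x, hx, rfl⟩ := hX
  obtain ⟨y, hy, rfl⟩ := hY
  exact ⟨x * y, M.mul_mem hx hy, Units.val_mul x y⟩

theorem InM.one : InM M (1 : Matrix Ix Ix F) := ⟨1, M.one_mem, Units.val_one⟩

theorem InM.inv {X Y : Matrix Ix Ix F} (hX : InM M X) (h : X * Y = 1) : InM M Y := by
  obtain ⟨x, hx, rfl⟩ := hX
  exact ⟨x⁻¹, M.inv_mem hx, Units.inv_eq_of_mul_eq_one_right h⟩

theorem InM.neg {A : Matrix Ix Ix F} (hA : InM M (1 + A)) (h : A * A = 0) : InM M (1 - A) :=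
  hA.inv (by rw [mul_sub, mul_one, add_mul, one_mul, h]; simp)

theorem InM.comm {A B : Matrix Ix Ix F} (hA : InM M (1 + A)) (hB : InM M (1 + B))
    (hA2 : A * A = 0) (hB2 : B * B = 0) (hBA : B * A = 0) : InM M (1 + A * B) := by
  have h := ((hA.mul hB).mul (hA.neg hA2)).mul (hB.neg hB2)
  have e : (1 + A) * (1 + B) * (1 - A) * (1 - B) - (1 + A * B) =
      -(A * A) + A * A * B - B * A + B * A * B - A * (B * A) + A * (B * A) * B - B * B - A * (B * B) := by
    noncomm_ring
  rw [hA2, hB2, hBA] at e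
  simp only [neg_zero, zero_mul, mul_zero, sub_zero, add_zero] at e
  rwa [sub_eq_zero.1 e] at h

theorem InM.conj {A P Q : Matrix Ix Ix F} (hA : InM M (1 + A)) (hP : InM M P) (hPQ : P * Q = 1) :
    InM M (1 + P * A * Q) := by
  have h := (hP.mul hA).mul (hP.inv hPQ)
  rwa [mul_add, mul_one, add_mul, hPQ] at h

theorem Over.of_pure (H : Over M) (g : Matrix α α F) (h : Matrix (Fin b) (Fin b) F)
    (hd : (g ⊗ₖ h).det = 1) : InM M (g ⊗ₖ h) :=
  ⟨GeneralLinearGroup.mkOfDetNeZero (g ⊗ₖ h) (by rw [hd]; exact one_ne_zero), H.pure _ ⟨g, h, rfl⟩ hd, rfl⟩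

theorem Over.right_factor (H : Over M) (h : Matrix (Fin b) (Fin b) F) (hd : h.det = 1) :
    InM M ((1 : Matrix α α F) ⊗ₖ h) :=
  H.of_pure _ _ (by rw [Matrix.det_kronecker, hd, Matrix.det_one, one_pow, one_pow, one_mul])

theorem Over.left_factor (H : Over M) (g : Matrix α α F) (hd : g.det = 1) :
    InM M (g ⊗ₖ (1 : Matrix (Fin b) (Fin b) F)) :=
  H.of_pure _ _ (by rw [Matrix.det_kronecker, hd, Matrix.det_one, one_pow, one_pow, one_mul])

theorem one_add_kron (v ψ : Fin b → F) :
    (1 : Matrix Ix Ix F) + lft α v * rgt α ψ = (1 : Matrix α α F) ⊗ₖ (1 + vecMulVec v ψ) := by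
  rw [Matrix.kronecker_add, Matrix.one_kronecker_one, lft_mul_rgt]

theorem Over.root (H : Over M) {v ψ : Fin b → F} (h : ψ ⬝ᵥ v = 0) :
    InM M (1 + (lft α v) * rgt α ψ) := by
  rw [one_add_kron]
  exact H.right_factor _ (H64.SLIndex.tv v ψ h).2

/-- A layer of a rank one map in the second factor. -/
theorem lft_mid_rgt (G : Matrix α α F) (v φ : Fin b → F) :
    (lft α v) * G * rgt α φ = G ⊗ₖ vecMulVec v φ := by
  have e : (lft α v) * G = (G ⊗ₖ (1 : Matrix (Fin b) (Fin b) F)) * lft α v := by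
    rw [kron_lft, Matrix.one_mulVec]
  rw [e, Matrix.mul_assoc, lft_mul_rgt, ← Matrix.mul_kronecker_mul, Matrix.mul_one, Matrix.one_mul]

/-- Only scalars occur in a layer. -/
def Good (M : Subgroup (GL (α × Fin b) F)) : Prop :=
  ∀ (v φ : Fin b → F) (G : Matrix α α F), v ≠ 0 → φ ≠ 0 → φ ⬝ᵥ v = 0 →
    InM M (1 + G ⊗ₖ vecMulVec v φ) → ∃ c : F, G = c • (1 : Matrix α α F)

/-- The coefficients occurring in all layers. -/
def layer (M : Subgroup (GL (α × Fin b) F)) : Submodule F (Matrix α α F) where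
  carrier := {G | ∀ v φ : Fin b → F, φ ⬝ᵥ v = 0 → InM M (1 + G ⊗ₖ vecMulVec v φ)}
  zero_mem' v φ _ := by
    rw [Matrix.zero_kronecker, add_zero]; exact InM.one
  add_mem' {G G'} hG hG' v φ h := by
    have := (hG v φ h).mul (hG' v φ h)
    rw [add_mul, one_mul, mul_add, mul_one, ← Matrix.mul_kronecker_mul, vecMulVec_mul_vecMulVec, h,
      zero_smul, vecMulVec_zero, Matrix.kronecker_zero, add_zero, add_assoc, add_comm (G' ⊗ₖ _),
      ← Matrix.add_kronecker] at this
    exact this
  smul_mem' c G hG v φ h := by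
    have := hG (c • v) φ (by rw [dotProduct_smul, h, smul_zero])
    rwa [smul_vecMulVec, Matrix.kronecker_smul, ← Matrix.smul_kronecker] at this

theorem Over.layer_inv (H : Over M) : TransInv (layer M) := by
  intro i j c hij G hG v φ h
  have hP : ((1 + Matrix.single i j c) : Matrix α α F).det = 1 := by
    rw [← Matrix.transvection, Matrix.det_transvection_of_ne i j hij c]
  have hPQ : ((1 + Matrix.single i j c) : Matrix α α F) * (1 - Matrix.single i j c) = 1 := by
    rw [add_mul, one_mul, mul_sub, mul_one, Matrix.single_mul_single_of_ne (h := hij.symm)]; simp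
  have := (hG v φ h).conj (H.left_factor _ hP)
    (Q := (1 - Matrix.single i j c) ⊗ₖ (1 : Matrix (Fin b) (Fin b) F))
    (by rw [← Matrix.mul_kronecker_mul, hPQ, Matrix.one_mul, Matrix.one_kronecker_one])
  rwa [← Matrix.mul_kronecker_mul, ← Matrix.mul_kronecker_mul, Matrix.one_mul, Matrix.mul_one] at this

theorem Over.mem_layer (H : Over M) {v φ : Fin b → F} {G : Matrix α α F} (hv : v ≠ 0) (hφ : φ ≠ 0)
    (h : φ ⬝ᵥ v = 0) (hG : InM M (1 + G ⊗ₖ vecMulVec v φ)) : G ∈ layer M := by
  intro w ψ h'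
  by_cases hw : w = 0
  · rw [hw, zero_vecMulVec, Matrix.kronecker_zero, add_zero]; exact InM.one
  by_cases hψ : ψ = 0
  · rw [hψ, vecMulVec_zero, Matrix.kronecker_zero, add_zero]; exact InM.one
  obtain ⟨g, hg⟩ := H64.SLIndex.exists_conj_tv H.three hv hφ hw hψ h h'
  have e := congrArg (fun z : Matrix.SpecialLinearGroup (Fin b) F => (z : Matrix (Fin b) (Fin b) F)) hg
  simp only [Matrix.SpecialLinearGroup.coe_mul, H64.SLIndex.tv_coe, mul_add, mul_one, add_mul] at e
  have hgg : ((g : Matrix (Fin b) (Fin b) F)) * ((g⁻¹ : Matrix.SpecialLinearGroup (Fin b) F) : Matrix (Fin b) (Fin b) F) = 1 := by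
    rw [← Matrix.SpecialLinearGroup.coe_mul, mul_inv_cancel, Matrix.SpecialLinearGroup.coe_one]
  rw [hgg] at e
  have e' := add_left_cancel e
  have := hG.conj (H.right_factor _ g.2)
    (Q := (1 : Matrix α α F) ⊗ₖ ((g⁻¹ : Matrix.SpecialLinearGroup (Fin b) F) : Matrix (Fin b) (Fin b) F))
    (by rw [← Matrix.mul_kronecker_mul, hgg, Matrix.one_mul, Matrix.one_kronecker_one])
  rwa [← Matrix.mul_kronecker_mul, ← Matrix.mul_kronecker_mul, Matrix.one_mul, Matrix.mul_one, e'] at this

theorem single_kron (i j : α) (k l : Fin b) (c : F) :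
    Matrix.single i j c ⊗ₖ vecMulVec (Pi.single k 1) (Pi.single l 1) = Matrix.single (i, k) (j, l) c := by
  rw [← Matrix.single_eq_single_vecMulVec_single, Matrix.single_kronecker_single, mul_one]

/-- A layer with a coefficient that is not scalar gives all transvections. -/
theorem Over.sl_le_of_not_good (H : Over M) (hq : (∃ c : F, c ≠ 0 ∧ c ≠ 1) ∨ 3 ≤ Fintype.card α)
    (hα : 2 ≤ Fintype.card α) (hbad : ¬ Good M) : Cfsg.Geo.specialLinear (α × Fin b) F ≤ M := by
  simp only [Good, not_forall] at hbad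
  obtain ⟨v, φ, G, hv, hφ, h, hG, hns⟩ := hbad
  have hall := H.layer_inv.all_single hq (H.mem_layer hv hφ h hG) hns
  have mixed : ∀ (i j : α) (k l : Fin b) (c : F), i ≠ j → k ≠ l →
      InM M (1 + Matrix.single (i, k) (j, l) c) := by
    intro i j k l c hij hkl
    have := hall i j hij c (Pi.single k 1) (Pi.single l 1) (by simp [hkl])
    rwa [single_kron] at this
  have comp : ∀ (p r s : α × Fin b) (c : F), p ≠ r → r ≠ s → p ≠ s → InM M (1 + Matrix.single p r c) →
      InM M (1 + Matrix.single r s (1 : F)) → InM M (1 + Matrix.single p s c) := by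
    intro p r s c hpr hrs hps h1 h2
    have := h1.comm h2 (Matrix.single_mul_single_of_ne (h := hpr.symm) ..)
      (Matrix.single_mul_single_of_ne (h := hrs.symm) ..) (Matrix.single_mul_single_of_ne (h := hps.symm) ..)
    rwa [Matrix.single_mul_single_same, mul_one] at this
  have horiz : ∀ (i : α) (k l : Fin b) (c : F), k ≠ l → InM M (1 + Matrix.single (i, k) (i, l) c) := by
    intro i k l c hkl
    obtain ⟨h', hh'⟩ : ∃ h' : α, h' ≠ i := Fintype.exists_ne_of_one_lt_card (by omega) i
    obtain ⟨m, hm⟩ : ∃ m, m ∉ ({k, l} : Finset (Fin b)) := by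
      by_contra hc
      push Not at hc
      have := Finset.card_le_card (fun x _ => hc x : (Finset.univ : Finset (Fin b)) ⊆ {k, l})
      have := Finset.card_le_two (a := k) (b := l)
      have := H.three
      simp only [Finset.card_univ, Fintype.card_fin] at *
      omega
    simp only [Finset.mem_insert, Finset.mem_singleton, not_or] at hm
    exact comp _ (h', m) _ c (fun e => hh' (congrArg Prod.fst e).symm) (fun e => hh' (congrArg Prod.fst e))
      (fun e => hkl (congrArg Prod.snd e)) (mixed i h' k m c hh'.symm (Ne.symm hm.1))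
      (mixed h' i m l 1 hh' hm.2)
  intro g hg
  have htop := Cfsg.Agent.H1.SL_eq_top_of_transvection_mem
    (M.comap (Matrix.SpecialLinearGroup.toGL : Matrix.SpecialLinearGroup (α × Fin b) F →* GL (α × Fin b) F))
    (fun p r hpr c => by
      obtain ⟨i, k⟩ := p
      obtain ⟨j, l⟩ := r
      have key : InM M (1 + Matrix.single (i, k) (j, l) c) := by
        by_cases hij : i = j
        · subst hij
          exact horiz i k l c fun e => hpr (by rw [e])
        by_cases hkl : k = l
        · subst hkl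
          have : Nontrivial (Fin b) := Fin.nontrivial_iff_two_le.mpr (by have := H.three; omega)
          obtain ⟨m, hm⟩ := exists_ne k
          exact comp _ (i, m) _ c (fun e => hm (congrArg Prod.snd e).symm) (fun e => hij (congrArg Prod.fst e))
            hpr (horiz i k m c hm.symm) (mixed i j m k 1 hij hm)
        exact mixed i j k l c hij hkl
      rw [Subgroup.mem_comap]
      obtain ⟨y, hy, hye⟩ := key
      convert hy
      refine Units.ext ?_
      rw [hye]
      rfl)
  have hdet : (g : Matrix Ix Ix F).det = 1 := congrArg Units.val (MonoidHom.mem_ker.mp hg)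
  have := Subgroup.mem_comap.mp
    (htop.ge (Subgroup.mem_top (G := Matrix.SpecialLinearGroup Ix F) (⟨(g : Matrix Ix Ix F), hdet⟩ : Matrix.SpecialLinearGroup Ix F)))
  convert this using 1
  exact Units.ext rfl

/-- Elements of `M` fixing a quotient layer come from the second factor. -/
theorem Over.centre_std (H : Over M) (hgood : Good M) {v : Fin b → F} (hv : v ≠ 0) {K : Matrix α Ix F}
    (hK : K * (lft α v) = 0) (hM : InM M (1 + lft α v * K)) : ∃ ψ : Fin b → F, K = rgt α ψ := by
  refine eq_rgt K fun u => ?_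
  obtain ⟨η, hη, hηv, hηu⟩ := exists_annihilator (F := F) (by rw [Fintype.card_fin]; exact H.three) v u
  set A := (lft α v) * K with hA
  set R := (lft α u) * rgt α η with hR
  have hA2 : A * A = 0 := by
    rw [hA, Matrix.mul_assoc (lft α v) K, ← Matrix.mul_assoc K, hK, Matrix.zero_mul, Matrix.mul_zero]
  have hR2 : R * R = 0 := by
    rw [hR, Matrix.mul_assoc (lft α u) (rgt α η), ← Matrix.mul_assoc (rgt α η), rgt_mul_lft, hηu, zero_smul,
      Matrix.zero_mul, Matrix.mul_zero]
  have hRA : R * A = 0 := by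
    rw [hR, hA, Matrix.mul_assoc (lft α u) (rgt α η), ← Matrix.mul_assoc (rgt α η), rgt_mul_lft, hηv, zero_smul,
      Matrix.zero_mul, Matrix.mul_zero]
  have h1 := hM.comm (H.root hηu) hA2 hR2 hRA
  refine hgood v η (K * lft α u) hv hη hηv ?_
  rw [← lft_mid_rgt]
  convert h1 using 2
  simp [hA, hR, Matrix.mul_assoc]

/-- Elements of `M` fixing a sublayer come from the second factor. -/
theorem Over.axis_std (H : Over M) (hgood : Good M) {φ : Fin b → F} (hφ : φ ≠ 0) {J : Matrix Ix α F}
    (hJ : (rgt α φ) * J = 0) (hM : InM M (1 + J * rgt α φ)) : ∃ u : Fin b → F, J = lft α u := by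
  refine eq_lft J fun η => ?_
  obtain ⟨w, hw, hφw, hηw⟩ := exists_common_zero (F := F) (by rw [Fintype.card_fin]; exact H.three) φ η
  set A := J * (rgt α φ) with hA
  set R := (lft α w) * rgt α η with hR
  have hA2 : A * A = 0 := by
    rw [hA, Matrix.mul_assoc J (rgt α φ), ← Matrix.mul_assoc (rgt α φ), hJ, Matrix.zero_mul, Matrix.mul_zero]
  have hR2 : R * R = 0 := by
    rw [hR, Matrix.mul_assoc (lft α w) (rgt α η), ← Matrix.mul_assoc (rgt α η), rgt_mul_lft, hηw, zero_smul,
      Matrix.zero_mul, Matrix.mul_zero]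
  have hAR : A * R = 0 := by
    rw [hR, hA, Matrix.mul_assoc J (rgt α φ), ← Matrix.mul_assoc (rgt α φ), rgt_mul_lft, hφw, zero_smul,
      Matrix.zero_mul, Matrix.mul_zero]
  have h1 := (H.root hηw).comm hM hR2 hA2 hAR
  refine hgood w φ (rgt α η * J) hw hφ hφw ?_
  rw [← lft_mid_rgt]
  convert h1 using 2
  simp [hA, hR, Matrix.mul_assoc]

end Cfsg.Agent.H99.Tensor
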