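import Cfsg.Agent.H99.Tensor.Descent
import Cfsg.Agent.H98.MaximalBase

/-!
The stabiliser of a tensor decomposition is maximal in the special linear group.
-/

set_option autoImplicit false
set_option linter.unusedSectionVars false

namespace Cfsg.Agent.H99.Tensor

open Matrix Cfsg.Geo
open scoped Kronecker

variable {F : Type*} [Field F]

theorem det_glReindex {ι κ : Type} [Fintype ι] [DecidableEq ι] [Fintype κ] [DecidableEq κ] (e : κ ≃ ι) (y : GL κ F) :
    (glReindex e y : Matrix ι ι F).det = (y : Matrix κ κ F).det :=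
  Matrix.det_reindexAlgEquiv F F e _

theorem isPure_mem_kronecker {n₁ n₂ : ℕ} (h1 : n₁ ≠ 0) (h2 : n₂ ≠ 0) (y : GL (Fin n₁ × Fin n₂) F)
    (h : IsPure (y : Matrix (Fin n₁ × Fin n₂) (Fin n₁ × Fin n₂) F)) : y ∈ kroneckerSubgroup n₁ n₂ F := by
  obtain ⟨g, k, hy⟩ := h
  have hd : (g ⊗ₖ k).det ≠ 0 := by
    rw [← hy]; exact (Matrix.GeneralLinearGroup.det y).ne_zero
  rw [Matrix.det_kronecker, Fintype.card_fin, Fintype.card_fin, mul_ne_zero_iff, pow_ne_zero_iff h2,
    pow_ne_zero_iff h1] at hd
  exact ⟨GeneralLinearGroup.mkOfDetNeZero g hd.1, GeneralLinearGroup.mkOfDetNeZero k hd.2, hy⟩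

/-- In standard coordinates. -/
theorem kronecker_maximal [Fintype F] {n₁ n₂ : ℕ} (h1 : 2 ≤ n₁) (h12 : n₁ < n₂)
    (hex : ¬ (n₁ = 2 ∧ Fintype.card F = 2)) :
    IsMaximalIn (specialLinear (Fin n₁ × Fin n₂) F)
      (kroneckerSubgroup n₁ n₂ F ⊓ specialLinear (Fin n₁ × Fin n₂) F) := by
  classical
  have hq : (∃ c : F, c ≠ 0 ∧ c ≠ 1) ∨ 3 ≤ Fintype.card (Fin n₁) := by
    by_cases hn : 3 ≤ n₁
    · exact Or.inr (by simpa using hn)
    · left
      have hF : 2 < Fintype.card F := by
        have := Fintype.one_lt_card (α := F)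
        have : Fintype.card F ≠ 2 := fun h => hex ⟨by omega, h⟩
        omega
      by_contra hc
      push Not at hc
      have := Finset.card_le_card (t := ({0, 1} : Finset F)) (fun x (_ : x ∈ Finset.univ) => by
        by_cases hx : x = 0
        · simp [hx]
        · simp [hc x hx])
      have := Finset.card_le_two (a := (0 : F)) (b := 1)
      rw [Finset.card_univ] at *
      omega
  have : Nonempty (Fin n₁) := ⟨⟨0, by omega⟩⟩
  refine H98.isMaximalIn_of inf_le_right ?_ ?_
  · let i0 : Fin n₁ := ⟨0, by omega⟩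
    let i1 : Fin n₁ := ⟨1, by omega⟩
    let k0 : Fin n₂ := ⟨0, by omega⟩
    let k1 : Fin n₂ := ⟨1, by omega⟩
    have h01 : i0 ≠ i1 := by simp [i0, i1]
    have hk : k0 ≠ k1 := by simp [k0, k1]
    have hd : ((1 + Matrix.single (i0, k0) (i1, k1) 1 : Matrix (Fin n₁ × Fin n₂) (Fin n₁ × Fin n₂) F)).det = 1 := by
      rw [← Matrix.transvection, Matrix.det_transvection_of_ne _ _ (fun e => h01 (congrArg Prod.fst e))]
    refine ⟨GeneralLinearGroup.mkOfDetNeZero _ (by rw [hd]; exact one_ne_zero), ?_, ?_⟩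
    · exact MonoidHom.mem_ker.2 (Units.ext hd)
    · rintro ⟨⟨a, c, hac⟩, -⟩
      change (1 + Matrix.single (i0, k0) (i1, k1) 1 : Matrix _ _ F) = _ at hac
      have e1 := congrFun (congrFun hac (i0, k0)) (i0, k0)
      have e2 := congrFun (congrFun hac (i0, k0)) (i1, k1)
      have e3 := congrFun (congrFun hac (i0, k0)) (i1, k0)
      simp [Matrix.kronecker_apply, Matrix.single_apply, Matrix.one_apply, h01, h01.symm, hk, hk.symm] at e1 e2 e3
      rcases e3 with h | h
      · rw [h, zero_mul] at e2; exact one_ne_zero e2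
      · rw [h, mul_zero] at e1; exact one_ne_zero e1
  · intro M hHM hMK g hg hgH
    have H : Over M :=
      { det := fun y hy => congrArg Units.val (MonoidHom.mem_ker.mp (hMK hy))
        pure := fun y hy hd => hHM ⟨isPure_mem_kronecker (by omega) (by omega) y hy, MonoidHom.mem_ker.2 (Units.ext hd)⟩
        three := by omega }
    by_cases hgood : Good M
    · exact absurd ⟨isPure_mem_kronecker (by omega) (by omega) g (H.all_pure hgood (by simpa using h12) g hg),
        hMK hg⟩ hgH
    · exact H.sl_le_of_not_good hq (by simpa using h1) hgood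

/-- Maximality is transported along isomorphisms. -/
theorem isMaximalIn_map {G G' : Type*} [Group G] [Group G'] (φ : G ≃* G') {K H : Subgroup G}
    (h : IsMaximalIn K H) : IsMaximalIn (K.map φ.toMonoidHom) (H.map φ.toMonoidHom) := by
  refine ⟨(Subgroup.map_lt_map_iff_of_injective (show Function.Injective φ.toMonoidHom from φ.injective)).2 h.1,
    fun M hHM hMK => ?_⟩
  have e : M = (M.comap φ.toMonoidHom).map φ.toMonoidHom :=
    (Subgroup.map_comap_eq_self_of_surjective φ.surjective M).symm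
  rcases h.2 (M.comap φ.toMonoidHom) (Subgroup.map_le_iff_le_comap.1 hHM)
    (fun x hx => by
      obtain ⟨y, hy, hyx⟩ := hMK hx
      rwa [φ.injective hyx] at hy) with h' | h'
  · exact Or.inl (by rw [e, h'])
  · exact Or.inr (by rw [e, h'])

/-- The stabiliser of a tensor decomposition is maximal in the special linear group. -/
theorem tensor_maximal [Fintype F] {ι : Type} [Fintype ι] [DecidableEq ι] {n₁ n₂ : ℕ} (h1 : 2 ≤ n₁)
    (h12 : n₁ < n₂) (hex : ¬ (n₁ = 2 ∧ Fintype.card F = 2)) (e : ι ≃ Fin n₁ × Fin n₂) (P : GL ι F) :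
    IsMaximalIn (specialLinear ι F) (tensorProductSubgroup n₁ n₂ e P ⊓ specialLinear ι F) := by
  let Φ : GL (Fin n₁ × Fin n₂) F ≃* GL ι F := (glReindex e.symm).trans (MulAut.conj P)
  have hdet : ∀ y : GL (Fin n₁ × Fin n₂) F,
      (Φ y : Matrix ι ι F).det = (y : Matrix (Fin n₁ × Fin n₂) (Fin n₁ × Fin n₂) F).det := fun y => by
    change ((P * glReindex e.symm y * P⁻¹ : GL ι F) : Matrix ι ι F).det = _
    rw [Units.val_mul, Units.val_mul, Matrix.det_units_conj, det_glReindex]
  have hT : tensorProductSubgroup n₁ n₂ e P = (kroneckerSubgroup n₁ n₂ F).map Φ.toMonoidHom := by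
    rw [tensorProductSubgroup, Subgroup.map_map]
    rfl
  have hS : (specialLinear (Fin n₁ × Fin n₂) F).map Φ.toMonoidHom = specialLinear ι F := by
    ext x
    constructor
    · rintro ⟨y, hy, rfl⟩
      exact MonoidHom.mem_ker.2 (Units.ext ((hdet y).trans (congrArg Units.val (MonoidHom.mem_ker.mp hy))))
    · intro hx
      refine ⟨Φ.symm x, MonoidHom.mem_ker.2 (Units.ext ?_), Φ.apply_symm_apply x⟩
      have := hdet (Φ.symm x)
      rw [Φ.apply_symm_apply] at this
      exact this.symm.trans (congrArg Units.val (MonoidHom.mem_ker.mp hx))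
  have := isMaximalIn_map Φ (kronecker_maximal (F := F) h1 h12 hex)
  rwa [Subgroup.map_inf _ _ _ (show Function.Injective Φ.toMonoidHom from Φ.injective), hS, ← hT] at this

end Cfsg.Agent.H99.Tensor
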