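import Cfsg.Agent.H99.Tensor.Normalise

/-!
Rank descent: a group between the stabiliser of a tensor decomposition and the special linear group whose
layers are scalar consists of pure tensors.
-/

set_option autoImplicit false
set_option linter.unusedSectionVars false

namespace Cfsg.Agent.H99.Tensor

open Matrix
open scoped Kronecker

variable {F : Type*} [Field F] {α : Type} [Fintype α] [DecidableEq α] {b : ℕ}
variable {M : Subgroup (GL (α × Fin b) F)}

local notation "Ix" => α × Fin b

theorem lft_neg (v : Fin b → F) : lft α (-v) = -lft α v := by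
  rw [← neg_one_smul F v, lft_smul, neg_one_smul]

/-- The conjugate of a root element and its inverse. -/
theorem conj_root_mul {X X' : Matrix Ix Ix F} (hXX : X' * X = 1) (hXX' : X * X' = 1) {v ψ : Fin b → F}
    (h : ψ ⬝ᵥ v = 0) :
    (1 + X * (lft α v * rgt α ψ) * X') * (1 - X * (lft α v * rgt α ψ) * X') = 1 := by
  set N := lft α v * rgt α ψ with hN
  have hN2 : N * N = 0 := by
    rw [hN, Matrix.mul_assoc (lft α v), ← Matrix.mul_assoc (rgt α ψ), rgt_mul_lft, h, zero_smul,
      Matrix.zero_mul, Matrix.mul_zero]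
  have e : (X * N * X') * (X * N * X') = 0 := by
    calc (X * N * X') * (X * N * X') = X * (N * ((X' * X) * N)) * X' := by simp only [Matrix.mul_assoc]
      _ = 0 := by rw [hXX, Matrix.one_mul, hN2, Matrix.mul_zero, Matrix.zero_mul]
  rw [add_mul, one_mul, mul_sub, mul_one, e]
  simp

/-- Contraction of a conjugate of a root element. -/
theorem contraction_conj (X X' : Matrix Ix Ix F) (v ψ η u : Fin b → F) :
    rgt α η * (1 + X * (lft α v * rgt α ψ) * X') * lft α u =
      (η ⬝ᵥ u) • (1 : Matrix α α F) + (rgt α η * X * lft α v) * (rgt α ψ * X' * lft α u) := by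
  rw [Matrix.mul_add, Matrix.mul_one, Matrix.add_mul, rgt_mul_lft]
  simp only [Matrix.mul_assoc]

/-- Contraction of the inverse of a conjugate of a root element. -/
theorem contraction_conj_neg (X X' : Matrix Ix Ix F) (v ψ η u : Fin b → F) :
    rgt α η * (1 - X * (lft α v * rgt α ψ) * X') * lft α u =
      (η ⬝ᵥ u) • (1 : Matrix α α F) - (rgt α η * X * lft α v) * (rgt α ψ * X' * lft α u) := by
  rw [Matrix.mul_sub, Matrix.mul_one, Matrix.sub_mul, rgt_mul_lft]
  simp only [Matrix.mul_assoc]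

theorem exists_not_eigen {h : Matrix (Fin b) (Fin b) F} (hns : ¬ ∃ c : F, h = c • (1 : Matrix (Fin b) (Fin b) F)) :
    ∃ w : Fin b → F, ∀ c : F, h *ᵥ w ≠ c • w := by
  by_contra hc
  push Not at hc
  choose c hc using hc
  refine hns ?_
  rcases Nat.eq_zero_or_pos b with rfl | hb
  · exact ⟨0, by ext i; exact i.elim0⟩
  refine ⟨c (Pi.single ⟨0, hb⟩ 1), ?_⟩
  ext i j
  have key : ∀ j : Fin b, c (Pi.single j 1) = c (Pi.single ⟨0, hb⟩ 1) := by
    intro j
    by_cases hj : j = ⟨0, hb⟩
    · rw [hj]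
    have h3 := hc (Pi.single j 1 + Pi.single ⟨0, hb⟩ 1)
    rw [Matrix.mulVec_add, hc, hc] at h3
    have ha := congrFun h3 j
    have hb' := congrFun h3 ⟨0, hb⟩
    simp [hj, Ne.symm hj] at ha hb'
    rw [ha, hb']
  have := congrFun (hc (Pi.single j 1)) i
  rw [key] at this
  simp [Pi.single_apply] at this
  rw [this]
  simp [Matrix.one_apply]

/-- A conjugate of a root element by an element that is not pure is not pure. -/
theorem Over.conj_not_pure [Nonempty α] (H : Over M) (hgood : Good M) (hab : Fintype.card α < b)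
    {X X' : Matrix Ix Ix F} (hX : InM M X) (hXX : X * X' = 1) (hnp : ¬ IsPure X) {v ψ : Fin b → F}
    (hv : v ≠ 0) (hψ : ψ ≠ 0) (h : ψ ⬝ᵥ v = 0) : ¬ IsPure (1 + X * (lft α v * rgt α ψ) * X') := by
  have hXX' : X' * X = 1 := mul_eq_one_comm.1 hXX
  rintro ⟨g, k, hgk⟩
  have hdet : IsUnit g.det := by
    have hd := congrArg Matrix.det (conj_root_mul hXX' hXX h)
    rw [Matrix.det_mul, hgk, Matrix.det_kronecker, Matrix.det_one] at hd
    have hu := IsUnit.of_mul_eq_one _ hd
    have hb : Fintype.card (Fin b) ≠ 0 := by rw [Fintype.card_fin]; have := H.three; omega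
    exact (isUnit_pow_iff hb).1 (IsUnit.mul_iff.1 hu).1
  have hfac : X * (lft α v * rgt α ψ) * X' = (X * lft α v) * (rgt α ψ * X') := by
    simp only [Matrix.mul_assoc]
  have key : ∀ w : Fin b → F, lft α (k *ᵥ w) * g - lft α w = X * lft α v * (rgt α ψ * X' * lft α w) := by
    intro w
    have := congrArg (· * lft α w) hgk
    simp only [Matrix.add_mul, Matrix.one_mul, kron_lft, hfac] at this
    rw [← this, add_sub_cancel_left, Matrix.mul_assoc (X * lft α v)]
  have hXv : X * lft α v ≠ 0 := fun h0 => lft_ne_zero (α := α) hv (by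
    have := congrArg (X' * ·) h0
    simpa [← Matrix.mul_assoc, hXX'] using this)
  by_cases hsc : ∃ c : F, k = c • (1 : Matrix (Fin b) (Fin b) F)
  · obtain ⟨c, rfl⟩ := hsc
    set G := c • g - 1 with hG
    have hG0 : G ≠ 0 := by
      intro hG0
      have e : (1 : Matrix Ix Ix F) + X * (lft α v * rgt α ψ) * X' = 1 := by
        rw [hgk, Matrix.kronecker_smul, ← Matrix.smul_kronecker, sub_eq_zero.1 (hG ▸ hG0 : c • g - 1 = 0),
          Matrix.one_kronecker_one]
      rw [add_eq_left] at e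
      have e2 : lft α v * rgt α ψ = 0 := by
        have := congrArg (fun Z => X' * Z * X) e
        simpa [← Matrix.mul_assoc, hXX', Matrix.mul_assoc _ X' X] using this
      have e3 := lft_injective (β := Fin b) (K := rgt α ψ) (K' := (0 : Matrix α Ix F)) hv
        (e2.trans (Matrix.mul_zero _).symm)
      exact hψ (rgt_eq_iff (α := α) (e3.trans rgt_zero.symm))
    obtain ⟨j, hj⟩ : ∃ j, G *ᵥ Pi.single j 1 ≠ 0 := by
      by_contra hc
      push Not at hc
      exact hG0 (Matrix.ext_of_mulVec_single fun j => by rw [hc j, Matrix.zero_mulVec])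
    let f : (Fin b → F) →ₗ[F] (α → F) :=
      { toFun := fun u => (rgt α ψ * X' * lft α u) *ᵥ Pi.single j 1
        map_add' := fun u u' => by rw [lft_add, Matrix.mul_add, Matrix.add_mulVec]
        map_smul' := fun a u => by rw [lft_smul, Matrix.mul_smul, Matrix.smul_mulVec, RingHom.id_apply] }
    obtain ⟨u, hu, hu0⟩ := Submodule.exists_mem_ne_zero_of_ne_bot
      (LinearMap.ker_ne_bot_of_finrank_lt (f := f) (by simp; omega))
    have h2 := congrArg (· *ᵥ (Pi.single j 1 : α → F)) (key u)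
    have e : lft α ((c • (1 : Matrix (Fin b) (Fin b) F)) *ᵥ u) * g - lft α u = lft α u * G := by
      rw [Matrix.smul_mulVec, Matrix.one_mulVec, lft_smul, hG, Matrix.mul_sub, Matrix.mul_one, Matrix.mul_smul,
        Matrix.smul_mul]
    simp only [e] at h2
    rw [← Matrix.mulVec_mulVec, ← Matrix.mulVec_mulVec, show (rgt α ψ * X' * lft α u) *ᵥ Pi.single j 1 = 0 from hu,
      Matrix.mulVec_zero] at h2
    refine hj ?_
    obtain ⟨η, hη⟩ := exists_dual hu0
    have h3 := congrArg (rgt α η *ᵥ ·) h2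
    simp only [Matrix.mulVec_mulVec, Matrix.mulVec_zero] at h3
    rwa [← Matrix.mul_assoc, rgt_mul_lft, hη, one_smul, Matrix.one_mul] at h3
  · obtain ⟨w, hw⟩ := exists_not_eigen hsc
    have hw0 : w ≠ 0 := fun e => hw 0 (by simp [e])
    obtain ⟨η, hη, hηw, hηk⟩ := exists_annihilator (F := F) (by rw [Fintype.card_fin]; exact H.three) w (k *ᵥ w)
    obtain ⟨η', hη'w, hη'k⟩ := H64.SLIndex.exists_dot' (u := w) (v := k *ᵥ w) hw
    have h1 := congrArg (rgt α η' * ·) (key w)
    simp only [Matrix.mul_sub] at h1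
    rw [← Matrix.mul_assoc, rgt_mul_lft, rgt_mul_lft, hη'w, hη'k, one_smul, Matrix.one_mul, zero_smul, sub_zero,
      ← Matrix.mul_assoc] at h1
    have h2 := congrArg (rgt α η * ·) (key w)
    simp only [Matrix.mul_sub] at h2
    rw [← Matrix.mul_assoc, rgt_mul_lft, rgt_mul_lft, hηw, hηk, zero_smul, Matrix.zero_mul, sub_self,
      ← Matrix.mul_assoc] at h2
    have hQ : IsUnit (rgt α ψ * X' * lft α w).det := by
      have := hdet
      rw [h1, Matrix.det_mul] at this
      exact (IsUnit.mul_iff.1 this).2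
    refine H.contraction_ne hgood hX hXX hnp hη hv ?_
    calc rgt α η * X * lft α v = rgt α η * X * lft α v * (rgt α ψ * X' * lft α w) * (rgt α ψ * X' * lft α w)⁻¹ :=
          (Matrix.mul_nonsing_inv_cancel_right _ _ hQ).symm
      _ = 0 := by
          rw [show rgt α η * X * lft α v * (rgt α ψ * X' * lft α w) = 0 by rw [h2, Matrix.mul_assoc (rgt α η)],
            Matrix.zero_mul]

/-- A contraction that is not pure can be made singular. -/
theorem exists_singular (hab : Fintype.card α < b) [Nonempty α] (X : Matrix Ix Ix F) (φ : Fin b → F) :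
    ∃ v : Fin b → F, v ≠ 0 ∧ (rgt α φ * X * lft α v).rank < Fintype.card α := by
  obtain ⟨j⟩ := ‹Nonempty α›
  let f : (Fin b → F) →ₗ[F] (α → F) :=
    { toFun := fun u => (rgt α φ * X * lft α u) *ᵥ Pi.single j 1
      map_add' := fun u u' => by rw [lft_add, Matrix.mul_add, Matrix.add_mulVec]
      map_smul' := fun a u => by rw [lft_smul, Matrix.mul_smul, Matrix.smul_mulVec, RingHom.id_apply] }
  obtain ⟨u, hu, hu0⟩ := Submodule.exists_mem_ne_zero_of_ne_bot
    (LinearMap.ker_ne_bot_of_finrank_lt (f := f) (by simp; omega))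
  refine ⟨u, hu0, ?_⟩
  have h1 := LinearMap.finrank_range_add_finrank_ker (rgt α φ * X * lft α u).mulVecLin
  have h2 : 0 < Module.finrank F (LinearMap.ker (rgt α φ * X * lft α u).mulVecLin) :=
    Submodule.one_le_finrank_iff.2 ((Submodule.ne_bot_iff _).2 ⟨Pi.single j 1, hu, by simp⟩)
  rw [Module.finrank_fintype_fun_eq_card] at h1
  rw [Matrix.rank]
  omega

/-- Rank can be lowered inside a product. -/
theorem exists_rank_lt {n : Type} [Fintype n] {P R : Matrix α α F} (W : Submodule F (n → F))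
    (Z : W →ₗ[F] Matrix α α F) (hP : P ≠ 0) (hR : R.rank < Module.finrank F W) :
    ∃ ψ : W, ψ ≠ 0 ∧ (P * Z ψ * R).rank < P.rank := by
  obtain ⟨j, hj⟩ : ∃ j, P *ᵥ Pi.single j 1 ≠ 0 := by
    by_contra hc
    push Not at hc
    exact hP (Matrix.ext_of_mulVec_single fun j => by rw [hc j, Matrix.zero_mulVec])
  obtain ⟨i, hi⟩ := Function.ne_iff.1 hj
  let lam : α → F := Pi.single i 1
  let f : W →ₗ[F] LinearMap.range (Rᵀ).mulVecLin :=
    { toFun := fun ψ => ⟨lam ᵥ* (P * Z ψ * R), ⟨lam ᵥ* (P * Z ψ), by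
        rw [Matrix.mulVecLin_apply, Matrix.mulVec_transpose, Matrix.vecMul_vecMul]⟩⟩
      map_add' := fun a b => Subtype.ext (by
        simp only [map_add, Matrix.mul_add, Matrix.add_mul, Matrix.vecMul_add, Submodule.coe_add])
      map_smul' := fun c a => Subtype.ext (by
        simp only [map_smul, Matrix.mul_smul, Matrix.smul_mul, Matrix.vecMul_smul, RingHom.id_apply,
          Submodule.coe_smul]) }
  obtain ⟨ψ, hψ, hψ0⟩ := Submodule.exists_mem_ne_zero_of_ne_bot
    (LinearMap.ker_ne_bot_of_finrank_lt (f := f) (by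
      change Rᵀ.rank < _
      rwa [Matrix.rank_transpose]))
  refine ⟨ψ, hψ0, ?_⟩
  rw [Matrix.rank, Matrix.rank]
  refine Submodule.finrank_lt_finrank_of_lt (lt_of_le_of_ne ?_ ?_)
  · rintro _ ⟨x, rfl⟩
    exact ⟨(Z ψ * R) *ᵥ x, by simp [Matrix.mulVec_mulVec, Matrix.mul_assoc]⟩
  · intro he
    have hm : P *ᵥ Pi.single j 1 ∈ LinearMap.range (P * Z ψ * R).mulVecLin := he ▸ ⟨_, rfl⟩
    obtain ⟨x, hx⟩ := hm
    have h0 : lam ᵥ* (P * Z ψ * R) = 0 := congrArg Subtype.val hψ
    have := congrArg (lam ⬝ᵥ ·) hx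
    simp only [Matrix.mulVecLin_apply, dotProduct_mulVec, h0, zero_dotProduct] at this
    refine hi ?_
    rw [← dotProduct_mulVec] at this
    simpa [lam] using this.symm

/-- All elements are pure tensors when the layers are scalar. -/
theorem Over.all_pure [Nonempty α] (H : Over M) (hgood : Good M) (hab : Fintype.card α < b)
    (y : GL (α × Fin b) F) (hy : y ∈ M) : IsPure (y : Matrix Ix Ix F) := by
  classical
  by_contra hnp0
  let P : ℕ → Prop := fun r => ∃ (X X' : Matrix Ix Ix F) (φ v : Fin b → F), InM M X ∧ X * X' = 1 ∧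
    ¬ IsPure X ∧ φ ≠ 0 ∧ v ≠ 0 ∧ (rgt α φ * X * lft α v).rank = r
  have hb1 : 0 < b := by omega
  have hex : ∃ r, P r := ⟨_, (y : Matrix Ix Ix F), ((y⁻¹ : GL Ix F) : Matrix Ix Ix F), Pi.single ⟨0, hb1⟩ 1,
    Pi.single ⟨0, hb1⟩ 1, ⟨y, hy, rfl⟩, by rw [← Units.val_mul, mul_inv_cancel, Units.val_one], hnp0,
    by simp, by simp, rfl⟩
  obtain ⟨X, X', φ, v, hX, hXX, hnp, hφ, hv, hrk⟩ := Nat.find_spec hex
  have hmin : ∀ r, P r → Nat.find hex ≤ r := fun r hr => Nat.find_min' hex hr
  set ρ := Nat.find hex with hρdef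
  have hρ : ρ < Fintype.card α := by
    obtain ⟨v', hv', hlt⟩ := exists_singular hab X φ
    exact lt_of_le_of_lt (hmin _ ⟨X, X', φ, v', hX, hXX, hnp, hφ, hv', rfl⟩) hlt
  have h3 : 3 ≤ Fintype.card (Fin b) := by rw [Fintype.card_fin]; exact H.three
  obtain ⟨ψ, hψ, hψv, -⟩ := exists_annihilator (F := F) h3 v v
  obtain ⟨w, hw, hφw, -⟩ := exists_common_zero (F := F) h3 φ φ
  have hXX' : X' * X = 1 := mul_eq_one_comm.1 hXX
  set Y := 1 + X * (lft α v * rgt α ψ) * X' with hYdef
  set Y' := 1 - X * (lft α v * rgt α ψ) * X' with hY'def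
  have hYY : Y * Y' = 1 := conj_root_mul hXX' hXX hψv
  have hY : InM M Y := (H.root hψv).conj hX hXX
  have hYnp : ¬ IsPure Y := H.conj_not_pure hgood hab hX hXX hnp hv hψ hψv
  have hYY' : Y' * Y = 1 := mul_eq_one_comm.1 hYY
  set U := 1 + Y * (lft α w * rgt α φ) * Y' with hUdef
  set U' := 1 - Y * (lft α w * rgt α φ) * Y' with hU'def
  have hUU : U * U' = 1 := conj_root_mul hYY' hYY hφw
  have hU : InM M U := (H.root hφw).conj hY hYY
  have hUnp : ¬ IsPure U := H.conj_not_pure hgood hab hY hYY hYnp hw hφ hφw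
  set A := rgt α φ * X * lft α v with hAdef
  set Q := rgt α ψ * X' * lft α w with hQdef
  have hCY : rgt α φ * Y * lft α w = A * Q := by
    rw [hYdef, contraction_conj, hφw, zero_smul, zero_add]
  have hCY' : rgt α φ * Y' * lft α w = -(A * Q) := by
    rw [hY'def, contraction_conj_neg, hφw, zero_smul, zero_sub]
  have hCU : rgt α φ * U * lft α w = -(A * Q * (A * Q)) := by
    rw [hUdef, contraction_conj, hφw, zero_smul, zero_add, hCY, hCY', Matrix.mul_neg]
  let W : Submodule F (Fin b → F) :=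
    { carrier := {η | η ⬝ᵥ w = 0}
      add_mem' := fun {a c} ha hc => by
        show (a + c) ⬝ᵥ w = 0
        rw [add_dotProduct, ha, hc, add_zero]
      zero_mem' := zero_dotProduct w
      smul_mem' := fun c a ha => by
        show (c • a) ⬝ᵥ w = 0
        rw [smul_dotProduct, ha, smul_zero] }
  have hW : b - 1 ≤ Module.finrank F W := by
    let f : (Fin b → F) →ₗ[F] F :=
      { toFun := fun η => η ⬝ᵥ w
        map_add' := fun a c => add_dotProduct a c w
        map_smul' := fun c a => smul_dotProduct c a w }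
    have h1 := LinearMap.finrank_range_add_finrank_ker f
    have h2 := Submodule.finrank_le (LinearMap.range f)
    have h4 : LinearMap.ker f = W := rfl
    rw [Module.finrank_self] at h2
    rw [Module.finrank_fin_fun, h4] at h1
    omega
  let Z : W →ₗ[F] Matrix α α F :=
    { toFun := fun η => -(Q * (A * Q) * (rgt α (η : Fin b → F) * Y * lft α w))
      map_add' := fun a c => by
        simp only [Submodule.coe_add, rgt_add, Matrix.add_mul, Matrix.mul_add, neg_add]
      map_smul' := fun c a => by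
        simp only [Submodule.coe_smul, rgt_smul, Matrix.smul_mul, Matrix.mul_smul, RingHom.id_apply, smul_neg] }
  have hA0 : A ≠ 0 := H.contraction_ne hgood hX hXX hnp hφ hv
  have hAQ : (A * Q).rank ≤ ρ := le_of_le_of_eq (Matrix.rank_mul_le_left _ _) hrk
  obtain ⟨⟨η, hη⟩, hη0, hlt⟩ := exists_rank_lt (P := A) (R := A * Q) W Z hA0 (by omega)
  replace hη : η ⬝ᵥ w = 0 := hη
  have hη0' : η ≠ 0 := fun e => hη0 (Subtype.ext e)
  set T := 1 + U * (lft α w * rgt α η) * U' with hTdef
  have hUU' : U' * U = 1 := mul_eq_one_comm.1 hUU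
  have hTT : T * (1 - U * (lft α w * rgt α η) * U') = 1 := conj_root_mul hUU' hUU hη
  have hT : InM M T := (H.root hη).conj hU hUU
  have hTnp : ¬ IsPure T := H.conj_not_pure hgood hab hU hUU hUnp hw hη0' hη
  have hCU' : rgt α η * U' * lft α w = rgt α η * Y * lft α w * (A * Q) := by
    rw [hU'def, contraction_conj_neg, hη, zero_smul, zero_sub, hCY', Matrix.mul_neg, neg_neg]
  have hCT : rgt α φ * T * lft α w = A * Z ⟨η, hη⟩ * (A * Q) := by
    rw [hTdef, contraction_conj, hφw, zero_smul, zero_add, hCU, hCU']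
    change _ = A * -(Q * (A * Q) * (rgt α η * Y * lft α w)) * (A * Q)
    simp only [Matrix.mul_assoc, Matrix.neg_mul, Matrix.mul_neg]
  have := hmin _ ⟨T, _, φ, w, hT, hTT, hTnp, hφ, hw, rfl⟩
  rw [hCT] at this
  omega

end Cfsg.Agent.H99.Tensor
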