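import Mathlib

/-!
Calculus of the two factor maps of a tensor product: `lft w : α → α ⊗ w` and `rgt φ : α ⊗ β → α`
contracting the second factor with `φ`.
-/

set_option autoImplicit false
set_option linter.unusedSectionVars false

namespace Cfsg.Agent.H99.Tensor

open Matrix
open scoped Kronecker

variable {F : Type*} [Field F] {α β : Type} [Fintype α] [DecidableEq α] [Fintype β] [DecidableEq β]

/-- The map `a ↦ a ⊗ w`. -/
def lft (α : Type) [DecidableEq α] (w : β → F) : Matrix (α × β) α F := Matrix.of fun p j => if p.1 = j then w p.2 else 0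

/-- Contraction of the second factor with `φ`. -/
def rgt (α : Type) [DecidableEq α] (φ : β → F) : Matrix α (α × β) F := Matrix.of fun i p => if p.1 = i then φ p.2 else 0

theorem lft_apply (w : β → F) (p : α × β) (j : α) :
    (lft α w) p j = if p.1 = j then w p.2 else 0 := rfl

theorem rgt_apply (φ : β → F) (i : α) (p : α × β) :
    (rgt α φ) i p = if p.1 = i then φ p.2 else 0 := rfl

theorem rgt_mul_lft (φ w : β → F) :
    (rgt α φ) * (lft α w) = (φ ⬝ᵥ w) • (1 : Matrix α α F) := by
  ext i j
  simp only [Matrix.mul_apply, rgt_apply, lft_apply, Matrix.smul_apply, Matrix.one_apply, smul_eq_mul,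
    Fintype.sum_prod_type, dotProduct]
  rw [Finset.sum_eq_single i (fun b _ hb => by simp [hb]) (by simp)]
  by_cases h : i = j
  · simp [h]
  · simp [h]

theorem lft_add (v w : β → F) : (lft α (v + w)) = lft α v + lft α w := by
  ext p j; simp only [lft_apply, Matrix.add_apply, Pi.add_apply]; split_ifs <;> simp

theorem lft_smul (c : F) (w : β → F) : (lft α (c • w)) = c • lft α w := by
  ext p j; simp only [lft_apply, Matrix.smul_apply, Pi.smul_apply]; split_ifs <;> simp

theorem lft_zero : (lft α (0 : β → F)) = 0 := by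
  ext p j; simp [lft_apply]

theorem rgt_add (v w : β → F) : (rgt α (v + w)) = rgt α v + rgt α w := by
  ext p j; simp only [rgt_apply, Matrix.add_apply, Pi.add_apply]; split_ifs <;> simp

theorem rgt_smul (c : F) (w : β → F) : (rgt α (c • w)) = c • rgt α w := by
  ext p j; simp only [rgt_apply, Matrix.smul_apply, Pi.smul_apply]; split_ifs <;> simp

theorem rgt_zero : (rgt α (0 : β → F)) = 0 := by
  ext p j; simp [rgt_apply]

theorem kron_lft (g : Matrix α α F) (h : Matrix β β F) (w : β → F) :
    (g ⊗ₖ h) * (lft α w) = (lft α (h *ᵥ w)) * g := by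
  ext p j
  simp only [Matrix.mul_apply, Matrix.kroneckerMap_apply, lft_apply, Fintype.sum_prod_type]
  rw [Finset.sum_eq_single j (fun b _ hb => by simp [hb]) (by simp),
    Finset.sum_eq_single p.1 (fun b _ hb => by simp [Ne.symm hb]) (by simp)]
  simp only [↓reduceIte, Matrix.mulVec, dotProduct, Finset.sum_mul]
  exact Finset.sum_congr rfl fun x _ => by ring

theorem rgt_kron (g : Matrix α α F) (h : Matrix β β F) (φ : β → F) :
    (rgt α φ) * (g ⊗ₖ h) = g * (rgt α (φ ᵥ* h)) := by
  ext i p
  simp only [Matrix.mul_apply, Matrix.kroneckerMap_apply, rgt_apply, Fintype.sum_prod_type]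
  rw [Finset.sum_eq_single i (fun b _ hb => by simp [hb]) (by simp),
    Finset.sum_eq_single p.1 (fun b _ hb => by simp [Ne.symm hb]) (by simp)]
  simp only [↓reduceIte, Matrix.vecMul, dotProduct, Finset.mul_sum]
  exact Finset.sum_congr rfl fun x _ => by ring

theorem lft_mul_rgt (v ψ : β → F) :
    (lft α v) * (rgt α ψ) = (1 : Matrix α α F) ⊗ₖ Matrix.vecMulVec v ψ := by
  ext p r
  simp only [Matrix.mul_apply, lft_apply, rgt_apply, Matrix.kroneckerMap_apply, Matrix.one_apply,
    Matrix.vecMulVec_apply]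
  rw [Finset.sum_eq_single p.1 (fun b _ hb => by simp [Ne.symm hb]) (by simp)]
  by_cases h : p.1 = r.1
  · simp [h]
  · simp [h, Ne.symm h]

theorem lft_injective {v : β → F} (hv : v ≠ 0) {n : Type} {K K' : Matrix α n F}
    (h : (lft α v) * K = lft α v * K') : K = K' := by
  obtain ⟨k, hk⟩ := Function.ne_iff.1 hv
  have e : ∀ (K : Matrix α n F) (i : α) (j : n), ((lft α v) * K) (i, k) j = v k * K i j := by
    intro K i j
    simp only [Matrix.mul_apply, lft_apply]
    rw [Finset.sum_eq_single i (fun b _ hb => by simp [Ne.symm hb]) (by simp)]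
    simp
  ext i j
  exact mul_left_cancel₀ hk ((e K i j).symm.trans ((congrFun (congrFun h (i, k)) j).trans (e K' i j)))

theorem rgt_injective {φ : β → F} (hφ : φ ≠ 0) {n : Type} {K K' : Matrix n α F}
    (h : K * (rgt α φ) = K' * rgt α φ) : K = K' := by
  obtain ⟨k, hk⟩ := Function.ne_iff.1 hφ
  have e : ∀ (K : Matrix n α F) (i : n) (j : α), (K * (rgt α φ)) i (j, k) = K i j * φ k := by
    intro K i j
    simp only [Matrix.mul_apply, rgt_apply]
    rw [Finset.sum_eq_single j (fun b _ hb => by simp [Ne.symm hb]) (by simp)]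
    simp
  ext i j
  exact mul_right_cancel₀ hk ((e K i j).symm.trans ((congrFun (congrFun h i) (j, k)).trans (e K' i j)))

theorem mul_lft_single {n : Type} (K : Matrix n (α × β) F) (k : β) (i : n) (j : α) :
    (K * (lft α (Pi.single k (1 : F)))) i j = K i (j, k) := by
  simp [Matrix.mul_apply, lft_apply, Fintype.sum_prod_type, Pi.single_apply]

theorem rgt_single_mul {n : Type} (J : Matrix (α × β) n F) (k : β) (i : α) (j : n) :
    ((rgt α (Pi.single k (1 : F))) * J) i j = J (i, k) j := by
  simp [Matrix.mul_apply, rgt_apply, Fintype.sum_prod_type, Pi.single_apply]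

/-- A matrix all of whose contractions are scalar is a contraction. -/
theorem eq_rgt (K : Matrix α (α × β) F) (h : ∀ u : β → F, ∃ c : F, K * lft α u = c • (1 : Matrix α α F)) :
    ∃ ψ : β → F, K = rgt α ψ := by
  choose c hc using h
  refine ⟨fun k => c (Pi.single k 1), ?_⟩
  ext i ⟨j, k⟩
  refine (mul_lft_single K k i j).symm.trans ((congrFun (congrFun (hc _) i) j).trans ?_)
  simp [rgt_apply, Matrix.one_apply, eq_comm]

/-- A matrix all of whose contractions are scalar is an insertion. -/
theorem eq_lft (J : Matrix (α × β) α F) (h : ∀ η : β → F, ∃ c : F, rgt α η * J = c • (1 : Matrix α α F)) :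
    ∃ u : β → F, J = lft α u := by
  choose c hc using h
  refine ⟨fun k => c (Pi.single k 1), ?_⟩
  ext ⟨i, k⟩ j
  refine (rgt_single_mul J k i j).symm.trans ((congrFun (congrFun (hc _) i) j).trans ?_)
  simp [lft_apply, Matrix.one_apply]

/-- A matrix killing all `A ⊗ u` for `u` in the kernel of `φ` is a multiple of `rgt φ`. -/
theorem eq_mul_rgt {n : Type} {φ u0 : β → F} (h0 : φ ⬝ᵥ u0 = 1) (T : Matrix n (α × β) F)
    (h : ∀ u : β → F, φ ⬝ᵥ u = 0 → T * (lft α u) = 0) :
    T = (T * (lft α u0)) * rgt α φ := by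
  ext i ⟨j, k⟩
  have hu : φ ⬝ᵥ (Pi.single k 1 - φ k • u0) = 0 := by
    rw [dotProduct_sub, dotProduct_smul, h0, dotProduct_single]; simp
  have := congrFun (congrFun (h _ hu) i) j
  rw [sub_eq_add_neg, lft_add, ← neg_smul, lft_smul, Matrix.mul_add, Matrix.mul_smul, Matrix.add_apply,
    Matrix.smul_apply, mul_lft_single, Matrix.zero_apply, smul_eq_mul] at this
  have e : ∀ Z : Matrix n α F, (Z * (rgt α φ)) i (j, k) = Z i j * φ k := by
    intro Z
    simp only [Matrix.mul_apply, rgt_apply]
    rw [Finset.sum_eq_single j (fun b _ hb => by simp [Ne.symm hb]) (by simp)]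
    simp
  refine Eq.trans ?_ (e _).symm
  linear_combination this

/-- A matrix whose contractions along `v`'s annihilator vanish is a multiple of `lft v`. -/
theorem eq_lft_mul {n : Type} {v η0 : β → F} (h0 : η0 ⬝ᵥ v = 1) (D : Matrix (α × β) n F)
    (h : ∀ η : β → F, η ⬝ᵥ v = 0 → (rgt α η) * D = 0) :
    D = lft α v * ((rgt α η0) * D) := by
  ext ⟨i, k⟩ j
  have hu : (Pi.single k 1 - v k • η0 : β → F) ⬝ᵥ v = 0 := by
    rw [sub_dotProduct, smul_dotProduct, h0, single_dotProduct]; simp
  have := congrFun (congrFun (h _ hu) i) j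
  rw [sub_eq_add_neg, rgt_add, ← neg_smul, rgt_smul, Matrix.add_mul, Matrix.smul_mul, Matrix.add_apply,
    Matrix.smul_apply, rgt_single_mul, Matrix.zero_apply, smul_eq_mul] at this
  have e : ∀ Z : Matrix α n F, ((lft α v) * Z) (i, k) j = v k * Z i j := by
    intro Z
    simp only [Matrix.mul_apply, lft_apply]
    rw [Finset.sum_eq_single i (fun b _ hb => by simp [Ne.symm hb]) (by simp)]
    simp
  refine Eq.trans ?_ (e _).symm
  linear_combination this

/-- A nonzero functional killing two vectors, in dimension at least three. -/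
theorem exists_annihilator (hb : 3 ≤ Fintype.card β) (v u : β → F) :
    ∃ η : β → F, η ≠ 0 ∧ η ⬝ᵥ v = 0 ∧ η ⬝ᵥ u = 0 := by
  let f : (β → F) →ₗ[F] F × F :=
    { toFun := fun η => (η ⬝ᵥ v, η ⬝ᵥ u)
      map_add' := fun a b => by simp [add_dotProduct]
      map_smul' := fun c a => by simp [smul_dotProduct] }
  have hk : LinearMap.ker f ≠ ⊥ := LinearMap.ker_ne_bot_of_finrank_lt (by simp; omega)
  obtain ⟨η, hη, hη0⟩ := Submodule.exists_mem_ne_zero_of_ne_bot hk
  exact ⟨η, hη0, congrArg Prod.fst hη, congrArg Prod.snd hη⟩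

/-- A nonzero vector killed by two functionals, in dimension at least three. -/
theorem exists_common_zero (hb : 3 ≤ Fintype.card β) (φ ψ : β → F) :
    ∃ w : β → F, w ≠ 0 ∧ φ ⬝ᵥ w = 0 ∧ ψ ⬝ᵥ w = 0 := by
  obtain ⟨w, h1, h2, h3⟩ := exists_annihilator hb φ ψ
  exact ⟨w, h1, by rw [dotProduct_comm]; exact h2, by rw [dotProduct_comm]; exact h3⟩

end Cfsg.Agent.H99.Tensor
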