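import Cfsg.Agent.H99.Tensor.Group

/-!
An element of a group between the stabiliser of a tensor decomposition and the special linear group has no
vanishing contraction unless it is a pure tensor.
-/

set_option autoImplicit false
set_option linter.unusedSectionVars false

namespace Cfsg.Agent.H99.Tensor

open Matrix
open scoped Kronecker

variable {F : Type*} [Field F] {α : Type} [Fintype α] [DecidableEq α] {b : ℕ}
variable {M : Subgroup (GL (α × Fin b) F)}

local notation "Ix" => α × Fin b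

theorem rgt_eq_iff [Nonempty α] {φ ψ : Fin b → F} (h : rgt α φ = rgt α ψ) : φ = ψ := by
  obtain ⟨i⟩ := ‹Nonempty α›
  funext k
  simpa [rgt_apply] using congrFun (congrFun h i) (i, k)

theorem lft_ne_zero [Nonempty α] {v : Fin b → F} (hv : v ≠ 0) : lft α v ≠ 0 := by
  obtain ⟨i⟩ := ‹Nonempty α›
  obtain ⟨k, hk⟩ := Function.ne_iff.1 hv
  intro h
  exact hk (by simpa [lft_apply] using congrFun (congrFun h (i, k)) i)

theorem exists_dual {v : Fin b → F} (hv : v ≠ 0) : ∃ η : Fin b → F, η ⬝ᵥ v = 1 := by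
  obtain ⟨k, hk⟩ := Function.ne_iff.1 hv
  exact ⟨Pi.single k (v k)⁻¹, by simp [inv_mul_cancel₀ hk]⟩

theorem exists_dual' {φ : Fin b → F} (hφ : φ ≠ 0) : ∃ u : Fin b → F, φ ⬝ᵥ u = 1 := by
  obtain ⟨u, hu⟩ := exists_dual hφ
  exact ⟨u, by rwa [dotProduct_comm]⟩

/-- An element mapping a layer to a layer maps the quotient layers to quotient layers. -/
theorem Over.pull (H : Over M) (hgood : Good M) {v : Fin b → F} (hv : v ≠ 0) {X X' : Matrix Ix Ix F}
    (hX : InM M X) (hXX : X * X' = 1) {h h' : Matrix α α F} (hh : X * lft α v = lft α v * h) (hhh : h * h' = 1)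
    {ψ : Fin b → F} (hψ : ψ ⬝ᵥ v = 0) : ∃ σ : Fin b → F, h * rgt α ψ = rgt α σ * X := by
  have hXX' : X' * X = 1 := mul_eq_one_comm.1 hXX
  have hinv : X' * lft α v = lft α v * h' := by
    calc X' * lft α v = X' * (lft α v * (h * h')) := by rw [hhh, Matrix.mul_one]
      _ = (X' * X) * (lft α v * h') := by rw [← Matrix.mul_assoc (lft α v), ← hh]; simp [Matrix.mul_assoc]
      _ = lft α v * h' := by rw [hXX', Matrix.one_mul]
  have hK : h * rgt α ψ * X' * lft α v = 0 := by
    rw [Matrix.mul_assoc, hinv, ← Matrix.mul_assoc, Matrix.mul_assoc h, rgt_mul_lft, hψ, zero_smul,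
      Matrix.mul_zero, Matrix.zero_mul]
  have h1 := (H.root hψ).conj hX hXX
  rw [← Matrix.mul_assoc X, hh, Matrix.mul_assoc (lft α v) h, Matrix.mul_assoc (lft α v),
    ] at h1
  obtain ⟨σ, hσ⟩ := H.centre_std hgood hv hK h1
  refine ⟨σ, ?_⟩
  rw [← hσ, Matrix.mul_assoc, hXX', Matrix.mul_one]

/-- An element mapping a layer to itself is a pure tensor. -/
theorem Over.pure_of_fix [Nonempty α] (H : Over M) (hgood : Good M) {v : Fin b → F} (hv : v ≠ 0)
    {X X' : Matrix Ix Ix F} (hX : InM M X) (hXX : X * X' = 1) {h h' : Matrix α α F}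
    (hh : X * lft α v = lft α v * h) (hhh : h * h' = 1) : IsPure X := by
  classical
  have hXX' : X' * X = 1 := mul_eq_one_comm.1 hXX
  have hhh' : h' * h = 1 := mul_eq_one_comm.1 hhh
  have hh' : X' * lft α v = lft α v * h' := by
    calc X' * lft α v = X' * (lft α v * (h * h')) := by rw [hhh, Matrix.mul_one]
      _ = (X' * X) * (lft α v * h') := by rw [← Matrix.mul_assoc (lft α v), ← hh]; simp [Matrix.mul_assoc]
      _ = lft α v * h' := by rw [hXX', Matrix.one_mul]
  have hex : ∀ η : Fin b → F, η ⬝ᵥ v = 0 → ∃ ψ : Fin b → F, rgt α η * X = h * rgt α ψ := by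
    intro η hη
    obtain ⟨σ, hσ⟩ := H.pull hgood hv (hX.inv hXX) hXX' hh' hhh' hη
    refine ⟨σ, ?_⟩
    calc rgt α η * X = h * (h' * rgt α η) * X := by rw [← Matrix.mul_assoc h, hhh, Matrix.one_mul]
      _ = h * rgt α σ := by rw [hσ, Matrix.mul_assoc, Matrix.mul_assoc (rgt α σ), hXX', Matrix.mul_one]
  choose f hf using hex
  have hinjh : ∀ {ψ ψ' : Fin b → F}, h * rgt α ψ = h * rgt α ψ' → ψ = ψ' := by
    intro ψ ψ' e
    refine rgt_eq_iff (α := α) ?_
    have := congrArg (h' * ·) e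
    simpa [← Matrix.mul_assoc, hhh'] using this
  have hfv : ∀ η (hη : η ⬝ᵥ v = 0), f η hη ⬝ᵥ v = 0 := by
    intro η hη
    have := congrArg (· * lft α v) (hf η hη)
    simp only [Matrix.mul_assoc, hh, rgt_mul_lft] at this
    rw [← Matrix.mul_assoc, rgt_mul_lft, hη, zero_smul, Matrix.zero_mul] at this
    by_contra hne
    obtain ⟨i⟩ := ‹Nonempty α›
    have h0 := congrArg (h' * ·) this
    simp only [Matrix.mul_zero, ← Matrix.mul_assoc, hhh', Matrix.one_mul] at h0
    exact hne (by simpa using (congrFun (congrFun h0 i) i).symm)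
  obtain ⟨η0, hη0⟩ := exists_dual hv
  have hpr : ∀ η : Fin b → F, (η - (η ⬝ᵥ v) • η0) ⬝ᵥ v = 0 := fun η => by
    simp [sub_dotProduct, smul_dotProduct, hη0]
  have hlin : ∀ η η' (h1 : η ⬝ᵥ v = 0) (h2 : η' ⬝ᵥ v = 0) (h3 : (η + η') ⬝ᵥ v = 0),
      f (η + η') h3 = f η h1 + f η' h2 := fun η η' h1 h2 h3 =>
    hinjh (by rw [← hf, rgt_add, rgt_add, Matrix.add_mul, Matrix.mul_add, hf, hf])
  have hsm : ∀ (c : F) η (h1 : η ⬝ᵥ v = 0) (h3 : (c • η) ⬝ᵥ v = 0), f (c • η) h3 = c • f η h1 :=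
    fun c η h1 h3 => hinjh (by rw [← hf, rgt_smul, rgt_smul, Matrix.smul_mul, Matrix.mul_smul, hf])
  have hcongr : ∀ η η' (h1 : η ⬝ᵥ v = 0) (h2 : η' ⬝ᵥ v = 0), η = η' → f η h1 = f η' h2 := by
    rintro η _ h1 h2 rfl; rfl
  let T : (Fin b → F) →ₗ[F] (Fin b → F) :=
    { toFun := fun η => f _ (hpr η) + (η ⬝ᵥ v) • η0
      map_add' := fun η η' => by
        have e : η + η' - ((η + η') ⬝ᵥ v) • η0 = (η - (η ⬝ᵥ v) • η0) + (η' - (η' ⬝ᵥ v) • η0) := by
          rw [add_dotProduct, add_smul]; abel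
        rw [hcongr _ _ (hpr _) (by rw [add_dotProduct, hpr, hpr, add_zero]) e, hlin _ _ (hpr η) (hpr η'),
          add_dotProduct, add_smul]
        abel
      map_smul' := fun c η => by
        have e : c • η - ((c • η) ⬝ᵥ v) • η0 = c • (η - (η ⬝ᵥ v) • η0) := by
          rw [smul_dotProduct, smul_sub, smul_smul, smul_eq_mul]
        rw [hcongr _ _ (hpr _) (by rw [smul_dotProduct, hpr, smul_zero]) e, hsm _ _ (hpr η),
          smul_dotProduct, RingHom.id_apply, smul_add, smul_smul, smul_eq_mul] }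
  have hT0 : ∀ η, η ⬝ᵥ v = 0 → rgt α η * X = h * rgt α (T η) := by
    intro η hη
    have e : η - (η ⬝ᵥ v) • η0 = η := by rw [hη, zero_smul, sub_zero]
    change _ = h * rgt α (f _ (hpr η) + (η ⬝ᵥ v) • η0)
    rw [hcongr _ _ (hpr η) hη e, hη, zero_smul, add_zero, hf]
  have hTv : ∀ η, T η ⬝ᵥ v = η ⬝ᵥ v := fun η => by
    change (f _ (hpr η) + (η ⬝ᵥ v) • η0) ⬝ᵥ v = _
    rw [add_dotProduct, hfv, zero_add, smul_dotProduct, hη0, smul_eq_mul, mul_one]
  set k := (LinearMap.toMatrix' T)ᵀ with hk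
  have hkT : ∀ η, η ᵥ* k = T η := fun η => by
    rw [hk, Matrix.vecMul_transpose, LinearMap.toMatrix'_mulVec]
  have hkv : k *ᵥ v = v := by
    refine dotProduct_eq _ _ fun η => ?_
    rw [dotProduct_comm, dotProduct_mulVec, hkT, hTv, dotProduct_comm]
  have hkdet : k.det ≠ 0 := by
    intro h0
    obtain ⟨η, hη0', hη⟩ := (Matrix.exists_vecMul_eq_zero_iff (M := k)).2 h0
    rw [hkT] at hη
    have hηv : η ⬝ᵥ v = 0 := by rw [← hTv, hη, zero_dotProduct]
    refine hη0' (rgt_eq_iff (α := α) ?_)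
    have e := hT0 η hηv
    rw [hη, rgt_zero, Matrix.mul_zero] at e
    have e2 := congrArg (· * X') e
    simpa [Matrix.mul_assoc, hXX, rgt_zero] using e2
  set s := h ⊗ₖ k with hs
  have hD : ∀ η : Fin b → F, η ⬝ᵥ v = 0 → rgt α η * (X - s) = 0 := fun η hη => by
    rw [Matrix.mul_sub, hs, rgt_kron, hkT, hT0 η hη, sub_self]
  have hD' := eq_lft_mul hη0 (X - s) hD
  set K := rgt α η0 * (X - s) with hKdef
  have hKv : K * lft α v = 0 := by
    rw [hKdef, Matrix.mul_assoc, Matrix.sub_mul, hh, hs, kron_lft, hkv, sub_self, Matrix.mul_zero]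
  have hfac : X = s * (1 + lft α v * (h' * K)) := by
    rw [Matrix.mul_add, Matrix.mul_one, ← Matrix.mul_assoc, hs, kron_lft, hkv,
      Matrix.mul_assoc (lft α v) h, ← Matrix.mul_assoc h, hhh, Matrix.one_mul, ← hD', ← hs,
      add_sub_cancel]
  have hKv' : h' * K * lft α v = 0 := by rw [Matrix.mul_assoc, hKv, Matrix.mul_zero]
  have hdet1 : (1 + lft α v * (h' * K)).det = 1 := by
    rw [Matrix.det_one_add_mul_comm, hKv', add_zero, Matrix.det_one]
  have hsdet : s.det = 1 := by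
    obtain ⟨x, hx, hxX⟩ := hX
    have := H.det x hx
    rw [hxX, hfac, Matrix.det_mul, hdet1, mul_one] at this
    exact this
  have hsM : InM M s := H.of_pure _ _ hsdet
  have hu : InM M (1 + lft α v * (h' * K)) := by
    have hsi : IsUnit s.det := by rw [hsdet]; exact isUnit_one
    have := (hsM.inv (Matrix.mul_nonsing_inv s hsi)).mul hX
    rwa [hfac, ← Matrix.mul_assoc, Matrix.nonsing_inv_mul s hsi, Matrix.one_mul] at this
  obtain ⟨ψ, hψ⟩ := H.centre_std hgood hv hKv' hu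
  rw [hfac, hψ, one_add_kron]
  exact IsPure.mul ⟨h, k, hs⟩ ⟨1, _, rfl⟩

/-- An element mapping a layer to a layer is a pure tensor. -/
theorem Over.pure_of_layer [Nonempty α] (H : Over M) (hgood : Good M) {v u : Fin b → F} (hv : v ≠ 0) (hu : u ≠ 0)
    {X X' : Matrix Ix Ix F} (hX : InM M X) (hXX : X * X' = 1) {h h' : Matrix α α F}
    (hh : X * lft α v = lft α u * h) (hhh : h * h' = 1) : IsPure X := by
  have : Nontrivial (Fin b) := Fin.nontrivial_iff_two_le.mpr (by have := H.three; omega)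
  obtain ⟨k, hk⟩ := Cfsg.Agent.H1.exists_SL_smul_eq (F := F) hu hv
  have hk' : (k : Matrix (Fin b) (Fin b) F) *ᵥ u = v := hk
  set P := (1 : Matrix α α F) ⊗ₖ (k : Matrix (Fin b) (Fin b) F) with hP
  set P' := (1 : Matrix α α F) ⊗ₖ ((k⁻¹ : Matrix.SpecialLinearGroup (Fin b) F) : Matrix (Fin b) (Fin b) F)
    with hP'
  have hPP : P' * P = 1 := by
    rw [hP, hP', ← Matrix.mul_kronecker_mul, ← Matrix.SpecialLinearGroup.coe_mul, inv_mul_cancel,
      Matrix.SpecialLinearGroup.coe_one, Matrix.one_mul, Matrix.one_kronecker_one]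
  have hp : IsPure (P * X) := by
    refine H.pure_of_fix hgood hv ((H.right_factor _ k.2).mul hX) (X' := X' * P') ?_ ?_ hhh
    · rw [Matrix.mul_assoc, ← Matrix.mul_assoc X, hXX, Matrix.one_mul]
      exact mul_eq_one_comm.1 hPP
    · rw [Matrix.mul_assoc, hh, ← Matrix.mul_assoc, hP, kron_lft, hk', Matrix.mul_one]
  have := IsPure.mul (X := P') ⟨1, _, hP'⟩ hp
  rwa [← Matrix.mul_assoc, hPP, Matrix.one_mul] at this

/-- Contractions of elements that are not pure do not vanish. -/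
theorem Over.contraction_ne [Nonempty α] (H : Over M) (hgood : Good M) {X X' : Matrix Ix Ix F}
    (hX : InM M X) (hXX : X * X' = 1) (hnp : ¬ IsPure X) {φ w : Fin b → F} (hφ : φ ≠ 0) (hw : w ≠ 0) :
    rgt α φ * X * lft α w ≠ 0 := by
  intro hzero
  have : Nontrivial (Fin b) := Fin.nontrivial_iff_two_le.mpr (by have := H.three; omega)
  obtain ⟨v, hv, hφv, -⟩ := exists_common_zero (F := F) (by rw [Fintype.card_fin]; exact H.three) φ φ
  obtain ⟨k, hk⟩ := Cfsg.Agent.H1.exists_SL_smul_eq (F := F) hv hw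
  have hk' : (k : Matrix (Fin b) (Fin b) F) *ᵥ v = w := hk
  set P := (1 : Matrix α α F) ⊗ₖ (k : Matrix (Fin b) (Fin b) F) with hP
  set P' := (1 : Matrix α α F) ⊗ₖ ((k⁻¹ : Matrix.SpecialLinearGroup (Fin b) F) : Matrix (Fin b) (Fin b) F)
    with hP'
  have hPP : P * P' = 1 := by
    rw [hP, hP', ← Matrix.mul_kronecker_mul, ← Matrix.SpecialLinearGroup.coe_mul, mul_inv_cancel,
      Matrix.SpecialLinearGroup.coe_one, Matrix.one_mul, Matrix.one_kronecker_one]
  have hY : InM M (X * P) := hX.mul (H.right_factor _ k.2)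
  set Y := X * P with hYdef
  set Y' := P' * X' with hY'def
  have hYY : Y * Y' = 1 := by
    rw [hYdef, hY'def, Matrix.mul_assoc, ← Matrix.mul_assoc P, hPP, Matrix.one_mul, hXX]
  have hYY' : Y' * Y = 1 := mul_eq_one_comm.1 hYY
  have hz : rgt α φ * (Y * lft α v) = 0 := by
    rw [hYdef, Matrix.mul_assoc, hP, kron_lft, hk', Matrix.mul_one, ← Matrix.mul_assoc, hzero]
  set J0 := Y * lft α v with hJ0
  have hQ : ∀ v1 : Fin b → F, φ ⬝ᵥ v1 = 0 → ∃ u : Fin b → F, J0 * (rgt α φ * Y' * lft α v1) = lft α u := by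
    intro v1 hv1
    set A := Y * (lft α v * rgt α φ) * Y' with hA
    set B := lft α v1 * rgt α φ with hB
    have hA2 : A * A = 0 := by
      have : A * A = Y * ((lft α v * rgt α φ) * ((Y' * Y) * (lft α v * rgt α φ))) * Y' := by
        simp only [hA, Matrix.mul_assoc]
      rw [this, hYY', Matrix.one_mul, Matrix.mul_assoc (lft α v), ← Matrix.mul_assoc (rgt α φ), rgt_mul_lft,
        hφv, zero_smul, Matrix.zero_mul, Matrix.mul_zero, Matrix.mul_zero, Matrix.zero_mul]
    have hB2 : B * B = 0 := by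
      rw [hB, Matrix.mul_assoc (lft α v1), ← Matrix.mul_assoc (rgt α φ), rgt_mul_lft, hv1, zero_smul,
        Matrix.zero_mul, Matrix.mul_zero]
    have hBA : B * A = 0 := by
      have : B * A = lft α v1 * ((rgt α φ * J0) * (rgt α φ * Y')) := by
        simp only [hA, hB, hJ0, Matrix.mul_assoc]
      rw [this, hz, Matrix.zero_mul, Matrix.mul_zero]
    have h1 := ((H.root hφv).conj hY hYY).comm (H.root hv1) hA2 hB2 hBA
    have e : A * B = J0 * (rgt α φ * Y' * lft α v1) * rgt α φ := by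
      simp only [hA, hB, hJ0, Matrix.mul_assoc]
    rw [← hA, ← hB, e] at h1
    refine H.axis_std hgood hφ ?_ h1
    rw [← Matrix.mul_assoc, hz, Matrix.zero_mul]
  have key : ∃ (u : Fin b → F) (h h' : Matrix α α F), u ≠ 0 ∧ J0 = lft α u * h ∧ h * h' = 1 := by
    have hJne : J0 ≠ 0 := by
      intro h0
      apply lft_ne_zero (α := α) hv
      have := congrArg (Y' * ·) h0
      simpa [hJ0, ← Matrix.mul_assoc, hYY'] using this
    by_cases hne : ∃ v1 : Fin b → F, φ ⬝ᵥ v1 = 0 ∧ rgt α φ * Y' * lft α v1 ≠ 0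
    · obtain ⟨v1, hv1, hQne⟩ := hne
      obtain ⟨u, hu⟩ := hQ v1 hv1
      have hu0 : u ≠ 0 := by
        intro h0
        rw [h0, lft_zero] at hu
        apply hQne
        have h2 : lft α v * (rgt α φ * Y' * lft α v1) = 0 := by
          have := congrArg (Y' * ·) hu
          simpa [hJ0, ← Matrix.mul_assoc, hYY'] using this
        exact lft_injective hv (h2.trans (Matrix.mul_zero _).symm)
      obtain ⟨η, hη⟩ := exists_dual hu0
      set Q := rgt α φ * Y' * lft α v1
      have h3 : rgt α η * J0 * Q = 1 := by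
        rw [Matrix.mul_assoc, hu, rgt_mul_lft, hη, one_smul]
      refine ⟨u, rgt α η * J0, Q, hu0, ?_, h3⟩
      calc J0 = J0 * (Q * (rgt α η * J0)) := by rw [mul_eq_one_comm.1 h3, Matrix.mul_one]
        _ = lft α u * (rgt α η * J0) := by rw [← Matrix.mul_assoc, hu]
    · push Not at hne
      obtain ⟨u0, hu0⟩ := exists_dual' hφ
      set Hm := rgt α φ * Y' * lft α u0 with hHm
      have e1 : rgt α φ * Y' = Hm * rgt α φ := eq_mul_rgt hu0 _ hne
      have hinvH : Hm * (rgt α φ * Y * lft α u0) = 1 := by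
        have e : Hm * (rgt α φ * Y * lft α u0) = rgt α φ * ((Y' * Y) * lft α u0) := by
          simp only [← Matrix.mul_assoc, ← e1]
        rw [e, hYY', Matrix.one_mul, rgt_mul_lft, hu0, one_smul]
      have h1 : InM M (1 + J0 * Hm * rgt α φ) := by
        have := (H.root hφv).conj hY hYY
        rw [← Matrix.mul_assoc Y, Matrix.mul_assoc (Y * lft α v), e1, ← Matrix.mul_assoc] at this
        exact this
      obtain ⟨u, hu⟩ := H.axis_std hgood hφ (by rw [← Matrix.mul_assoc, hz, Matrix.zero_mul]) h1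
      refine ⟨u, rgt α φ * Y * lft α u0, Hm, ?_, ?_, mul_eq_one_comm.1 hinvH⟩
      · intro h0
        rw [h0, lft_zero] at hu
        apply hJne
        have := congrArg (· * (rgt α φ * Y * lft α u0)) hu
        simpa [Matrix.mul_assoc J0, hinvH] using this
      · rw [← hu, Matrix.mul_assoc J0, hinvH, Matrix.mul_one]
  obtain ⟨u, h, h', hu, hh, hhh⟩ := key
  have hpY := H.pure_of_layer hgood hv hu hY hYY hh hhh
  apply hnp
  have := IsPure.mul hpY (Y := P') ⟨1, _, hP'⟩
  rwa [hYdef, Matrix.mul_assoc, hPP, Matrix.mul_one] at this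

end Cfsg.Agent.H99.Tensor
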